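import Cfsg.Agent.H662.HT.Two
import Cfsg.Agent.H828.HT.Basic

/-!
# Half-transitive linear groups, soluble part, case `e = 2`: counting without tables (S3577)

`C = C_G(A)`; `|C : A| ≤ 36`, every prime divisor of `|C : A|` is `2` or `3`; fixed spaces; elements with fixed vectors
in a coset of `A`; the case `|V| = 11 ^ 4`.
-/

set_option autoImplicit false
set_option linter.unusedSectionVars false

open scoped Classical

namespace Cfsg.Agent.H919.HT

open Cfsg.Agent.H662.HT Cfsg.Agent.H828.HT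

universe u

/-- coset counting -/
theorem fiber_count {Γ : Type*} [Group Γ] [Fintype Γ] (A : Subgroup Γ) (X D : Finset Γ) (n : ℕ)
    (hD : ∀ x ∈ X, ∀ a ∈ A, x * a ∈ D)
    (hn : ∀ x ∈ X, (X.filter (fun y => x⁻¹ * y ∈ A)).card ≤ n) :
    X.card * Nat.card A ≤ n * D.card := by
  have h1 : (X ×ˢ (Finset.univ : Finset A)).card = X.card * Nat.card A := by
    rw [Finset.card_product, Finset.card_univ, Nat.card_eq_fintype_card]
  rw [← h1]
  refine Finset.card_le_mul_card_image_of_maps_to (f := fun q : Γ × A => q.1 * (q.2 : Γ)) ?_ n ?_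
  · rintro ⟨x, a⟩ hq
    exact hD x (Finset.mem_product.1 hq).1 a a.2
  · intro d _
    by_cases hne : ({q ∈ X ×ˢ (Finset.univ : Finset A) | q.1 * (q.2 : Γ) = d}).Nonempty
    · obtain ⟨⟨x₀, a₀⟩, hq⟩ := hne
      rw [Finset.mem_filter, Finset.mem_product] at hq
      refine le_trans ?_ (hn x₀ hq.1.1)
      refine Finset.card_le_card_of_injOn (fun q => q.1) ?_ ?_
      · rintro ⟨x, a⟩ h
        have h' := Finset.mem_filter.1 (Finset.mem_coe.1 h)
        refine Finset.mem_coe.2 (Finset.mem_filter.2 ⟨(Finset.mem_product.1 h'.1).1, ?_⟩)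
        have h2 : x * (a : Γ) = x₀ * (a₀ : Γ) := h'.2.trans hq.2.symm
        have h3 : x₀⁻¹ * x = (a₀ : Γ) * (a : Γ)⁻¹ := by
          rw [eq_mul_inv_iff_mul_eq, mul_assoc, h2, inv_mul_cancel_left]
        change x₀⁻¹ * x ∈ A
        rw [h3]
        exact A.mul_mem a₀.2 (A.inv_mem a.2)
      · rintro ⟨x, a⟩ h ⟨y, b⟩ h' hxy
        have e1 := (Finset.mem_filter.1 (Finset.mem_coe.1 h)).2
        have e2 := (Finset.mem_filter.1 (Finset.mem_coe.1 h')).2
        have hxy' : x = y := hxy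
        subst hxy'
        have e3 : x * (a : Γ) = x * (b : Γ) := e1.trans e2.symm
        have e4 : a = b := Subtype.ext (mul_left_cancel e3)
        rw [e4]
    · rw [Finset.not_nonempty_iff_eq_empty] at hne
      rw [hne]; simp

/-- solutions of `a ^ n = 1` in a cyclic subgroup -/
theorem card_pow_le {Γ ι : Type*} [Group Γ] [Finite Γ] (A : Subgroup Γ) (hA : IsCyclic A) (n : ℕ) (hn : 0 < n)
    (X : Finset ι) (f : ι → Γ) (hf : Set.InjOn f X) (hX : ∀ i ∈ X, f i ∈ A ∧ f i ^ n = 1) :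
    X.card ≤ Nat.gcd n (Nat.card A) := by
  have : Fintype A := Fintype.ofFinite A
  have hpos : 0 < Nat.gcd n (Nat.card A) := Nat.gcd_pos_of_pos_left _ hn
  refine le_trans ?_ (IsCyclic.card_pow_eq_one_le (α := A) hpos)
  refine Finset.card_le_card_of_injOn (fun i => if h : f i ∈ A then (⟨f i, h⟩ : A) else 1) ?_ ?_
  · intro i hi
    have h1 := hX i (Finset.mem_coe.1 hi)
    refine Finset.mem_coe.2 (Finset.mem_filter.2 ⟨Finset.mem_univ _, ?_⟩)
    change (if h : f i ∈ A then (⟨f i, h⟩ : A) else 1) ^ _ = 1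
    rw [dif_pos h1.1, pow_gcd_eq_one]
    exact ⟨Subtype.ext h1.2, pow_card_eq_one'⟩
  · intro i hi j hj h
    have h1 := hX i (Finset.mem_coe.1 hi)
    have h2 := hX j (Finset.mem_coe.1 hj)
    have h3 : (if h : f i ∈ A then (⟨f i, h⟩ : A) else 1) = (if h : f j ∈ A then (⟨f j, h⟩ : A) else 1) := h
    rw [dif_pos h1.1, dif_pos h2.1] at h3
    exact hf hi hj (congrArg Subtype.val h3)

variable {p : ℕ} [Fact p.Prime] {V : Type u} [AddCommGroup V] [Module (ZMod p) V] [Finite V]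
variable {G A F : Subgroup (V ≃ₗ[ZMod p] V)}

noncomputable instance ftE : Fintype (V ≃ₗ[ZMod p] V) := Fintype.ofFinite _

/-- `C_G(A)` -/
def CC (G A : Subgroup (V ≃ₗ[ZMod p] V)) : Subgroup (V ≃ₗ[ZMod p] V) := G ⊓ Subgroup.centralizer (A : Set _)

theorem mem_CC {g : V ≃ₗ[ZMod p] V} : g ∈ CC G A ↔ g ∈ G ∧ ∀ x ∈ A, g * x = x * g := by
  unfold CC
  rw [Subgroup.mem_inf, Subgroup.mem_centralizer_iff]
  constructor
  · rintro ⟨h1, h2⟩
    exact ⟨h1, fun x hx => (h2 x hx).symm⟩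
  · rintro ⟨h1, h2⟩
    exact ⟨h1, fun x hx => (h2 x hx).symm⟩

theorem F_le_CC (E : ETwo G A F) : F ≤ CC G A := fun f hf =>
  mem_CC.2 ⟨E.FG hf, fun x hx => (E.cenA x hx f hf).symm⟩

theorem A_le_CC (E : ETwo G A F) : A ≤ CC G A := E.AF.trans (F_le_CC E)

theorem card_A_pos : 0 < Nat.card A := Nat.card_pos

/-- `#{f ∈ S}` as a `Nat.card` -/
theorem card_filter_mem (S : Subgroup (V ≃ₗ[ZMod p] V)) :
    (Finset.univ.filter (fun f : V ≃ₗ[ZMod p] V => f ∈ S)).card = Nat.card S := by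
  rw [Nat.card_eq_fintype_card, Fintype.card_subtype]

/-- cosets of `A` -/
theorem card_coset (x : V ≃ₗ[ZMod p] V) :
    (Finset.univ.filter (fun f : V ≃ₗ[ZMod p] V => x⁻¹ * f ∈ A)).card = Nat.card A := by
  rw [← card_filter_mem]
  refine Finset.card_bij (fun f _ => x⁻¹ * f) ?_ ?_ ?_
  · intro a ha
    exact Finset.mem_filter.2 ⟨Finset.mem_univ _, (Finset.mem_filter.1 ha).2⟩
  · intro a _ b _ h
    exact mul_left_cancel h
  · intro b hb
    refine ⟨x * b, Finset.mem_filter.2 ⟨Finset.mem_univ _, ?_⟩, inv_mul_cancel_left _ _⟩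
    rw [inv_mul_cancel_left]
    exact (Finset.mem_filter.1 hb).2

theorem card_diff (E : ETwo G A F) :
    (Finset.univ.filter (fun f : V ≃ₗ[ZMod p] V => f ∈ F ∧ f ∉ A)).card = 3 * Nat.card A := by
  have h1 : (Finset.univ.filter (fun f : V ≃ₗ[ZMod p] V => f ∈ F ∧ f ∉ A)) =
      (Finset.univ.filter (fun f : V ≃ₗ[ZMod p] V => f ∈ F)) \
        (Finset.univ.filter (fun f : V ≃ₗ[ZMod p] V => f ∈ A)) := by
    ext f; simp [Finset.mem_sdiff]
  have h2 : (Finset.univ.filter (fun f : V ≃ₗ[ZMod p] V => f ∈ A)) ⊆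
      (Finset.univ.filter (fun f : V ≃ₗ[ZMod p] V => f ∈ F)) := by
    intro f hf
    exact Finset.mem_filter.2 ⟨Finset.mem_univ _, E.AF (Finset.mem_filter.1 hf).2⟩
  rw [h1, Finset.card_sdiff_of_subset h2, card_filter_mem, card_filter_mem, E.card]
  omega

theorem exists_xy (E : ETwo G A F) : ∃ x ∈ F, ∃ y ∈ F, x ∉ A ∧ y ∉ A ∧ x⁻¹ * y ∉ A := by
  have hpos : 0 < Nat.card A := card_A_pos
  have h0 := card_diff E
  obtain ⟨x, hx⟩ : (Finset.univ.filter (fun f : V ≃ₗ[ZMod p] V => f ∈ F ∧ f ∉ A)).Nonempty := by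
    rw [← Finset.card_pos, h0]; omega
  have hx' := (Finset.mem_filter.1 hx).2
  refine ⟨x, hx'.1, ?_⟩
  by_contra hc
  push Not at hc
  have h1 : (Finset.univ.filter (fun f : V ≃ₗ[ZMod p] V => f ∈ F ∧ f ∉ A)) ⊆
      (Finset.univ.filter (fun f : V ≃ₗ[ZMod p] V => x⁻¹ * f ∈ A)) := by
    intro f hf
    have hf' := (Finset.mem_filter.1 hf).2
    exact Finset.mem_filter.2 ⟨Finset.mem_univ _, hc f hf'.1 hx'.2 hf'.2⟩
  have h2 := Finset.card_le_card h1
  rw [h0, card_coset] at h2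
  omega

/-- a subgroup of `F` containing `A`, `x`, `y` is `F` -/
theorem gen_F (E : ETwo G A F) {x y : V ≃ₗ[ZMod p] V} (hxA : x ∉ A) (hyA : y ∉ A) (hxy : x⁻¹ * y ∉ A)
    (B : Subgroup (V ≃ₗ[ZMod p] V)) (hB : B ≤ F) (hAB : A ≤ B) (hx : x ∈ B) (hy : y ∈ B) : B = F := by
  have hpos : 0 < Nat.card A := card_A_pos
  have hd : Nat.card B ∣ 4 * Nat.card A := by
    rw [← E.card]; exact Subgroup.card_dvd_of_le hB
  set a1 := (Finset.univ.filter (fun f : V ≃ₗ[ZMod p] V => f ∈ A)) with ha1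
  set a2 := (Finset.univ.filter (fun f : V ≃ₗ[ZMod p] V => x⁻¹ * f ∈ A)) with ha2
  set a3 := (Finset.univ.filter (fun f : V ≃ₗ[ZMod p] V => y⁻¹ * f ∈ A)) with ha3
  have d12 : Disjoint a1 a2 := by
    rw [Finset.disjoint_left]
    intro f h1 h2
    have h1' := (Finset.mem_filter.1 h1).2
    have h2' := (Finset.mem_filter.1 h2).2
    apply hxA
    have : x = f * (x⁻¹ * f)⁻¹ := by group
    rw [this]
    exact A.mul_mem h1' (A.inv_mem h2')
  have d13 : Disjoint a1 a3 := by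
    rw [Finset.disjoint_left]
    intro f h1 h2
    have h1' := (Finset.mem_filter.1 h1).2
    have h2' := (Finset.mem_filter.1 h2).2
    apply hyA
    have : y = f * (y⁻¹ * f)⁻¹ := by group
    rw [this]
    exact A.mul_mem h1' (A.inv_mem h2')
  have d23 : Disjoint a2 a3 := by
    rw [Finset.disjoint_left]
    intro f h1 h2
    have h1' := (Finset.mem_filter.1 h1).2
    have h2' := (Finset.mem_filter.1 h2).2
    apply hxy
    have : x⁻¹ * y = (x⁻¹ * f) * (y⁻¹ * f)⁻¹ := by group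
    rw [this]
    exact A.mul_mem h1' (A.inv_mem h2')
  have hsub : (a1 ∪ a2) ∪ a3 ⊆ (Finset.univ.filter (fun f : V ≃ₗ[ZMod p] V => f ∈ B)) := by
    intro f hf
    refine Finset.mem_filter.2 ⟨Finset.mem_univ _, ?_⟩
    rcases Finset.mem_union.1 hf with hf | hf
    · rcases Finset.mem_union.1 hf with hf | hf
      · exact hAB (Finset.mem_filter.1 hf).2
      · have := (Finset.mem_filter.1 hf).2
        have e : f = x * (x⁻¹ * f) := by group
        rw [e]
        exact B.mul_mem hx (hAB this)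
    · have := (Finset.mem_filter.1 hf).2
      have e : f = y * (y⁻¹ * f) := by group
      rw [e]
      exact B.mul_mem hy (hAB this)
  have hle := Finset.card_le_card hsub
  rw [Finset.card_union_of_disjoint (by
      rw [Finset.disjoint_union_left]; exact ⟨d13, d23⟩), Finset.card_union_of_disjoint d12,
    ha1, ha2, ha3, card_filter_mem, card_coset, card_coset, card_filter_mem] at hle
  have hcard : Nat.card F ≤ Nat.card B := by
    rw [E.card]
    obtain ⟨c, hc⟩ := hd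
    rcases Nat.lt_or_ge c 2 with h | h
    · interval_cases c
      · omega
      · omega
    · nlinarith
  exact Subgroup.eq_of_le_of_card_ge hB hcard

/-- `g` centralises `A`, `x`, `y`: then `g ∈ A` -/
theorem mem_A_of_comm (E : ETwo G A F) {x y : V ≃ₗ[ZMod p] V} (hx : x ∈ F) (hy : y ∈ F) (hxA : x ∉ A) (hyA : y ∉ A)
    (hxy : x⁻¹ * y ∉ A) {g : V ≃ₗ[ZMod p] V} (hg : g ∈ CC G A) (h1 : g * x = x * g) (h2 : g * y = y * g) :
    g ∈ A := by
  have hB := gen_F E hxA hyA hxy (F ⊓ Subgroup.centralizer {g}) inf_le_left (by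
      intro a ha
      refine Subgroup.mem_inf.2 ⟨E.AF ha, ?_⟩
      rw [Subgroup.mem_centralizer_singleton_iff]
      exact ((mem_CC.1 hg).2 a ha).symm)
    (Subgroup.mem_inf.2 ⟨hx, by rw [Subgroup.mem_centralizer_singleton_iff]; exact h1.symm⟩)
    (Subgroup.mem_inf.2 ⟨hy, by rw [Subgroup.mem_centralizer_singleton_iff]; exact h2.symm⟩)
  refine E.cen g (mem_CC.1 hg).1 ?_
  intro f hf
  rw [← hB] at hf
  have := (Subgroup.mem_inf.1 hf).2
  rw [Subgroup.mem_centralizer_singleton_iff] at this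
  exact this.symm

/-- `S_x` -/
noncomputable def SX (A F : Subgroup (V ≃ₗ[ZMod p] V)) (x : V ≃ₗ[ZMod p] V) : Finset (V ≃ₗ[ZMod p] V) :=
  Finset.univ.filter (fun f => (f ∈ F ∧ f ∉ A) ∧ f * f = x * x)

theorem card_SX (E : ETwo G A F) (x : V ≃ₗ[ZMod p] V) : (SX A F x).card ≤ 6 := by
  have h1 := fiber_count A (SX A F x) (Finset.univ.filter (fun f : V ≃ₗ[ZMod p] V => f ∈ F ∧ f ∉ A)) 2 (by
    intro f hf a ha
    have hf' := (Finset.mem_filter.1 hf).2
    refine Finset.mem_filter.2 ⟨Finset.mem_univ _, F.mul_mem hf'.1.1 (E.AF ha), ?_⟩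
    intro hc
    apply hf'.1.2
    have : f = (f * a) * a⁻¹ := by group
    rw [this]
    exact A.mul_mem hc (A.inv_mem ha)) (by
    intro f hf
    have hf' := (Finset.mem_filter.1 hf).2
    refine (card_pow_le A E.cyc 2 (by norm_num) _ (fun g => f⁻¹ * g) ?_ ?_).trans
      (Nat.le_of_dvd (by norm_num) (Nat.gcd_dvd_left _ _))
    · intro g _ g' _ h
      exact mul_left_cancel h
    · intro g hg
      have hg1 := Finset.mem_filter.1 (Finset.mem_coe.1 hg)
      have hg' := (Finset.mem_filter.1 hg1.1).2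
      refine ⟨hg1.2, ?_⟩
      -- `g = f a`
      set a := f⁻¹ * g with ha
      have hga : g = f * a := by rw [ha]; group
      have hcm := E.cenA a hg1.2 f hf'.1.1
      have h3 : f * a * (f * a) = f * f * (a * a) := by
        rw [mul_assoc f a, ← mul_assoc a f a, hcm]; group
      have h4 : f * f * (a * a) = f * f := by
        rw [← h3, ← hga, hg'.2, hf'.2]
      rw [pow_two]
      exact mul_eq_left.1 h4)
  rw [card_diff E] at h1
  have hpos : 0 < Nat.card A := card_A_pos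
  have h2 : (SX A F x).card * Nat.card A ≤ 6 * Nat.card A := by
    calc _ ≤ 2 * (3 * Nat.card A) := h1
      _ = 6 * Nat.card A := by ring
  exact Nat.le_of_mul_le_mul_right h2 hpos

theorem conj_mem_SX (E : ETwo G A F) {x g : V ≃ₗ[ZMod p] V} (hx : x ∈ F) (hxA : x ∉ A) (hg : g ∈ CC G A) :
    g * x * g⁻¹ ∈ SX A F x := by
  have hg' := mem_CC.1 hg
  refine Finset.mem_filter.2 ⟨Finset.mem_univ _, ⟨E.nF g hg'.1 x hx, ?_⟩, ?_⟩
  · intro hc
    apply hxA
    have h1 := E.nA g⁻¹ (G.inv_mem hg'.1) _ hc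
    have h2 : g⁻¹ * (g * x * g⁻¹) * g⁻¹⁻¹ = x := by group
    rwa [h2] at h1
  · have h1 := hg'.2 _ (E.sq x hx)
    have h2 : g * x * g⁻¹ * (g * x * g⁻¹) = g * (x * x) * g⁻¹ := by group
    rw [h2, h1, mul_inv_cancel_right]

/-- `|C_G(A)| ≤ 36 |A|` -/
theorem card_CC_le (E : ETwo G A F) : Nat.card (CC G A) ≤ Nat.card A * 36 := by
  obtain ⟨x, hx, y, hy, hxA, hyA, hxy⟩ := exists_xy E
  rw [← card_filter_mem]
  have h1 : (Finset.univ.filter (fun f : V ≃ₗ[ZMod p] V => f ∈ CC G A)).card ≤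
      Nat.card A * ((SX A F x) ×ˢ (SX A F y)).card := by
    refine Finset.card_le_mul_card_image_of_maps_to (f := fun g : V ≃ₗ[ZMod p] V => (g * x * g⁻¹, g * y * g⁻¹)) ?_ _ ?_
    · intro g hg
      have hg' := (Finset.mem_filter.1 hg).2
      exact Finset.mem_product.2 ⟨conj_mem_SX E hx hxA hg', conj_mem_SX E hy hyA hg'⟩
    · intro b _
      by_cases hne : (Finset.filter (fun g : V ≃ₗ[ZMod p] V => (g * x * g⁻¹, g * y * g⁻¹) = b)
        (Finset.univ.filter (fun f : V ≃ₗ[ZMod p] V => f ∈ CC G A))).Nonempty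
      · obtain ⟨g₀, hg₀⟩ := hne
        rw [← card_coset (A := A) g₀]
        refine Finset.card_le_card ?_
        intro g hg
        have e0 := Finset.mem_filter.1 hg₀
        have e1 := Finset.mem_filter.1 hg
        have c0 := (Finset.mem_filter.1 e0.1).2
        have c1 := (Finset.mem_filter.1 e1.1).2
        refine Finset.mem_filter.2 ⟨Finset.mem_univ _, ?_⟩
        have e2 : (g * x * g⁻¹, g * y * g⁻¹) = (g₀ * x * g₀⁻¹, g₀ * y * g₀⁻¹) := e1.2.trans e0.2.symm
        have e3 := (Prod.ext_iff.1 e2).1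
        have e4 := (Prod.ext_iff.1 e2).2
        simp only at e3 e4
        refine mem_A_of_comm E hx hy hxA hyA hxy ((CC G A).mul_mem ((CC G A).inv_mem c0) c1) ?_ ?_
        · have : g₀⁻¹ * g * x = g₀⁻¹ * (g * x * g⁻¹) * g := by group
          rw [this, e3]; group
        · have : g₀⁻¹ * g * y = g₀⁻¹ * (g * y * g⁻¹) * g := by group
          rw [this, e4]; group
      · rw [Finset.not_nonempty_iff_eq_empty] at hne
        rw [hne]; simp
  refine h1.trans ?_
  rw [Finset.card_product]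
  exact Nat.mul_le_mul_left _ (Nat.mul_le_mul (card_SX E x) (card_SX E y))

/-- elements of `C_G(A)` acting trivially on `F / A`: the square lies in `A` -/
theorem sq_mem_of_triv (E : ETwo G A F) {w : V ≃ₗ[ZMod p] V} (hw : w ∈ CC G A)
    (ht : ∀ x ∈ F, w * x * w⁻¹ * x⁻¹ ∈ A) : w * w ∈ A := by
  have hw' := mem_CC.1 hw
  refine E.cen _ (G.mul_mem hw'.1 hw'.1) ?_
  intro x hx
  obtain ⟨a, ha⟩ : ∃ a, a = w * x * w⁻¹ * x⁻¹ := ⟨_, rfl⟩
  have haA : a ∈ A := ha ▸ ht x hx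
  have h1 : w * x * w⁻¹ = a * x := by rw [ha]; group
  have hax := E.cenA a haA x hx
  have h2 : a * x * (a * x) = x * x := by
    rw [← h1]
    have h3 : w * x * w⁻¹ * (w * x * w⁻¹) = w * (x * x) * w⁻¹ := by group
    rw [h3, hw'.2 _ (E.sq x hx), mul_inv_cancel_right]
  have h4 : a * a = 1 := by
    have h5 : a * x * (a * x) = a * a * (x * x) := by
      rw [mul_assoc a x, ← mul_assoc x a x, ← hax]; group
    rw [h5] at h2
    exact mul_eq_right.1 h2
  have h6 : w * (a * x) * w⁻¹ = x := by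
    have h7 : w * (a * x) * w⁻¹ = (w * a) * x * w⁻¹ := by group
    rw [h7, hw'.2 a haA]
    have h8 : a * w * x * w⁻¹ = a * (w * x * w⁻¹) := by group
    rw [h8, h1, ← mul_assoc, h4, one_mul]
  have h9 : w * w * x = w * (w * x * w⁻¹) * w⁻¹ * (w * w) := by group
  rw [h9, h1, h6]

theorem pow_mem_A (E : ETwo G A F) {g : V ≃ₗ[ZMod p] V} (hg : g ∈ CC G A) : g ^ 48 ∈ A := by
  have hg' := mem_CC.1 hg
  have hAn : (A.subgroupOf G).Normal := ⟨by
    rintro ⟨n, hn⟩ hnA ⟨x, hx⟩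
    exact E.nA x hx n hnA⟩
  have hFn : (F.subgroupOf G).Normal := ⟨by
    rintro ⟨n, hn⟩ hnA ⟨x, hx⟩
    exact E.nF x hx n hnA⟩
  let π := QuotientGroup.mk' (A.subgroupOf G)
  have hB : ((F.subgroupOf G).map π).Normal := hFn.map π (QuotientGroup.mk'_surjective _)
  have hBc : Nat.card ((F.subgroupOf G).map π) = 4 := by
    let ψ : (F.subgroupOf G) →* (G ⧸ A.subgroupOf G) := π.comp (F.subgroupOf G).subtype
    have h1 : ψ.range = (F.subgroupOf G).map π := by
      rw [MonoidHom.range_comp, Subgroup.range_subtype]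
    have h2 : ψ.ker = (A.subgroupOf G).subgroupOf (F.subgroupOf G) := by
      ext x
      rw [MonoidHom.mem_ker, Subgroup.mem_subgroupOf]
      exact QuotientGroup.eq_one_iff _
    have h3 := Subgroup.card_mul_index ψ.ker
    rw [Subgroup.index_ker, h1, h2] at h3
    have hle : A.subgroupOf G ≤ F.subgroupOf G := fun x hx => E.AF hx
    rw [Nat.card_congr (Subgroup.subgroupOfEquivOfLe hle).toEquiv,
      Nat.card_congr (Subgroup.subgroupOfEquivOfLe (E.AF.trans E.FG)).toEquiv,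
      Nat.card_congr (Subgroup.subgroupOfEquivOfLe E.FG).toEquiv, E.card] at h3
    have hpos : 0 < Nat.card A := card_A_pos
    rw [mul_comm] at h3
    exact Nat.eq_of_mul_eq_mul_right hpos h3
  let φ : (G ⧸ A.subgroupOf G) →* Equiv.Perm ((F.subgroupOf G).map π) :=
    (MulAut.toPerm _).comp MulAut.conjNormal
  have hφ : φ (π (⟨g, hg'.1⟩ : G)) ^ 24 = 1 := by
    have h1 : Nat.card (Equiv.Perm ((F.subgroupOf G).map π)) = 24 := by
      rw [Nat.card_perm, hBc]; rfl
    rw [← h1]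
    exact pow_card_eq_one'
  rw [← map_pow, ← map_pow] at hφ
  have h24 : ∀ x ∈ F, g ^ 24 * x * (g ^ 24)⁻¹ * x⁻¹ ∈ A := by
    intro x hx
    have h1 := congrArg (fun e : Equiv.Perm ((F.subgroupOf G).map π) =>
      ((e ⟨π ⟨x, E.FG hx⟩, ⟨⟨x, E.FG hx⟩, hx, rfl⟩⟩ : (F.subgroupOf G).map π) : G ⧸ A.subgroupOf G)) hφ
    simp only [φ, MonoidHom.comp_apply, Equiv.Perm.coe_one, id_eq] at h1
    have h2 : π ((⟨g, hg'.1⟩ : G) ^ 24) * π ⟨x, E.FG hx⟩ * (π ((⟨g, hg'.1⟩ : G) ^ 24))⁻¹ = π ⟨x, E.FG hx⟩ := h1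
    rw [← map_inv, ← map_mul, ← map_mul] at h2
    have h3 := (QuotientGroup.eq_one_iff (N := A.subgroupOf G)
      (((⟨g, hg'.1⟩ : G) ^ 24 * ⟨x, E.FG hx⟩ * ((⟨g, hg'.1⟩ : G) ^ 24)⁻¹) * (⟨x, E.FG hx⟩ : G)⁻¹)).1 (by
        change π _ = 1
        rw [map_mul, h2, map_inv, mul_inv_cancel])
    exact h3
  have h48 := sq_mem_of_triv E ((CC G A).pow_mem hg 24) h24
  rw [← pow_add] at h48
  exact h48

/-- every prime divisor of `|C_G(A) : A|` divides `48` -/
theorem prime_dvd (E : ETwo G A F) {k r : ℕ} (hk : Nat.card (CC G A) = k * Nat.card A) (hr : r.Prime)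
    (hrk : r ∣ k) : r ∣ 48 := by
  have hn : (A.subgroupOf (CC G A)).Normal := ⟨by
    rintro ⟨n, hn⟩ hnA ⟨x, hx⟩
    exact E.nA x (mem_CC.1 hx).1 n hnA⟩
  have h1 := Subgroup.card_eq_card_quotient_mul_card_subgroup (A.subgroupOf (CC G A))
  rw [Nat.card_congr (Subgroup.subgroupOfEquivOfLe (A_le_CC E)).toEquiv, hk] at h1
  have hpos : 0 < Nat.card A := card_A_pos
  have h2 := Nat.eq_of_mul_eq_mul_right hpos h1
  have : Fact r.Prime := ⟨hr⟩
  obtain ⟨q, hq⟩ := exists_prime_orderOf_dvd_card' (G := CC G A ⧸ A.subgroupOf (CC G A)) r (by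
    rw [← h2]; exact hrk)
  obtain ⟨c, rfl⟩ := QuotientGroup.mk'_surjective _ q
  rw [← hq]
  apply orderOf_dvd_of_pow_eq_one
  rw [← map_pow]
  exact (QuotientGroup.eq_one_iff _).2 (pow_mem_A E c.2)

/-- `A` has even order -/
theorem two_dvd (E : ETwo G A F) : 2 ∣ Nat.card A := by
  obtain ⟨x, hx, y, hy, hxA, hyA, hxy⟩ := exists_xy E
  have h0 : ¬ (∀ y ∈ F, x * y = y * x) := fun h => hxA (E.cen x (E.FG hx) h)
  push Not at h0
  obtain ⟨y, hy, hne⟩ := h0
  obtain ⟨a, ha⟩ : ∃ a, a = x * y * x⁻¹ * y⁻¹ := ⟨_, rfl⟩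
  have haA : a ∈ A := ha ▸ E.comm x hx y hy
  have h1 : x * y * x⁻¹ = a * y := by rw [ha]; group
  have ha1 : a ≠ 1 := by
    intro h
    rw [h, one_mul] at h1
    exact hne (mul_inv_eq_iff_eq_mul.1 h1)
  have hay := E.cenA a haA y hy
  have h2 : a * a = 1 := by
    have h3 : a * y * (a * y) = y * y := by
      rw [← h1]
      have h4 : x * y * x⁻¹ * (x * y * x⁻¹) = x * (y * y) * x⁻¹ := by group
      rw [h4, ← E.cenA _ (E.sq y hy) x hx, mul_inv_cancel_right]
    have h5 : a * y * (a * y) = a * a * (y * y) := by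
      rw [mul_assoc a y, ← mul_assoc y a y, ← hay]; group
    rw [h5] at h3
    exact mul_eq_right.1 h3
  have h6 : orderOf (⟨a, haA⟩ : A) = 2 := by
    rw [orderOf_eq_prime_iff]
    refine ⟨Subtype.ext ?_, fun h => ha1 (congrArg Subtype.val h)⟩
    change a ^ 2 = 1
    rw [pow_two, h2]
  rw [← h6]
  exact orderOf_dvd_natCard _

section field

variable {K : Type u} [Field K] [Module K V] {χ : A →* Kˣ} {σ : G →* (K ≃+* K)}

/-- the `K`-linear map of an element with trivial `σ` -/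
noncomputable def lin (hK : KS G A K χ σ) (g : G) (hg : σ g = 1) : V →ₗ[K] V where
  toFun := fun v => (g : V ≃ₗ[ZMod p] V) v
  map_add' := fun v w => map_add (g : V ≃ₗ[ZMod p] V) v w
  map_smul' := fun k v => by
    change (g : V ≃ₗ[ZMod p] V) (k • v) = k • (g : V ≃ₗ[ZMod p] V) v
    rw [hK.semi, hg]; rfl

theorem fx_lin (hK : KS G A K χ σ) {g : G} (hg : σ g = 1) (hg1 : g ≠ 1) :
    Nat.card (fx (g : V ≃ₗ[ZMod p] V)) * Nat.card K ≤ Nat.card V := by
  have := hK.fin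
  obtain ⟨v₀, hv₀⟩ : ∃ v : V, (g : V ≃ₗ[ZMod p] V) v ≠ v := by
    by_contra hc
    push Not at hc
    exact hg1 (Subtype.ext (LinearEquiv.ext hc))
  rw [← Nat.card_prod]
  refine Nat.card_le_card_of_injective
    (fun q : fx (g : V ≃ₗ[ZMod p] V) × K => (q.1 : V) + q.2 • v₀) ?_
  rintro ⟨w, k⟩ ⟨w', k'⟩ h
  simp only at h
  have hw := mem_fx.1 w.2
  have hw' := mem_fx.1 w'.2
  have h1 : (k - k') • v₀ = (w' : V) - (w : V) := by
    rw [sub_smul, sub_eq_sub_iff_add_eq_add, add_comm, h, add_comm]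
  have h2 : (k - k') • (g : V ≃ₗ[ZMod p] V) v₀ = (k - k') • v₀ := by
    have h3 : (g : V ≃ₗ[ZMod p] V) ((k - k') • v₀) = (k - k') • v₀ := by
      rw [h1, map_sub, hw, hw']
    rw [hK.semi, hg] at h3
    exact h3
  have h4 : (k - k') • ((g : V ≃ₗ[ZMod p] V) v₀ - v₀) = 0 := by rw [smul_sub, h2, sub_self]
  rcases smul_eq_zero.1 h4 with h5 | h5
  · have h6 : k = k' := sub_eq_zero.1 h5
    subst h6
    have h7 : (w : V) = (w' : V) := add_right_cancel h
    exact Prod.ext (Subtype.ext h7) rfl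
  · exact absurd (sub_eq_zero.1 h5) hv₀

theorem fx_semi (hK : KS G A K χ σ) {g : G} (hg : σ g ≠ 1) :
    Nat.card (fx (g : V ≃ₗ[ZMod p] V)) ^ 2 ≤ Nat.card V := by
  obtain ⟨k, hk⟩ : ∃ k : K, σ g k ≠ k := by
    by_contra hc
    push Not at hc
    exact hg (RingEquiv.ext hc)
  rw [pow_two, ← Nat.card_prod]
  refine Nat.card_le_card_of_injective
    (fun q : fx (g : V ≃ₗ[ZMod p] V) × fx (g : V ≃ₗ[ZMod p] V) => (q.1 : V) + k • (q.2 : V)) ?_
  rintro ⟨w, x⟩ ⟨w', x'⟩ h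
  simp only at h
  have hw := mem_fx.1 w.2
  have hw' := mem_fx.1 w'.2
  have hx := mem_fx.1 x.2
  have hx' := mem_fx.1 x'.2
  have h1 : k • ((x : V) - x') = (w' : V) - (w : V) := by
    rw [smul_sub, sub_eq_sub_iff_add_eq_add, add_comm, h, add_comm]
  have h2 : (g : V ≃ₗ[ZMod p] V) (k • ((x : V) - x')) = k • ((x : V) - x') := by
    rw [h1, map_sub, hw, hw']
  rw [hK.semi, map_sub, hx, hx', ← sub_eq_zero, ← sub_smul] at h2
  rcases smul_eq_zero.1 h2 with h5 | h5
  · exact absurd (sub_eq_zero.1 h5) hk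
  · have h6 : (x : V) = x' := sub_eq_zero.1 h5
    have h7 : x = x' := Subtype.ext h6
    subst h7
    have h8 : (w : V) = (w' : V) := add_right_cancel h
    exact Prod.ext (Subtype.ext h8) rfl

/-- a coset of `A` contains at most `dim V` elements with non-zero fixed vectors -/
theorem coset_lin (hK : KS G A K χ σ) {g : G} (hg : σ g = 1) (X : Finset G)
    (hX : ∀ y ∈ X, ((g⁻¹ * y : G) : V ≃ₗ[ZMod p] V) ∈ A ∧ ∃ v : V, v ≠ 0 ∧ (y : V ≃ₗ[ZMod p] V) v = v) :
    X.card ≤ Module.finrank K V := by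
  have := hK.fin
  have : Module.Finite K V := Module.Finite.of_finite
  choose! v hv using fun y hy => (hX y hy).2
  let μ : X → K := fun y => ((χ ⟨_, (hX y.1 y.2).1⟩)⁻¹ : Kˣ)
  have hμ : Function.Injective μ := by
    intro y y' h
    have h1 : (χ ⟨_, (hX y.1 y.2).1⟩)⁻¹ = (χ ⟨_, (hX y'.1 y'.2).1⟩)⁻¹ := Units.ext h
    have h2 := hK.inj (inv_injective h1)
    have h3 := congrArg Subtype.val h2
    simp only at h3
    have h4 : g⁻¹ * y.1 = g⁻¹ * y'.1 := Subtype.ext h3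
    exact Subtype.ext (mul_left_cancel h4)
  have hl := Module.End.eigenvectors_linearIndependent' (lin hK g hg) μ hμ (fun y : X => v y.1) (by
    intro y
    refine ⟨?_, (hv y.1 y.2).1⟩
    rw [Module.End.mem_eigenspace_iff]
    change (g : V ≃ₗ[ZMod p] V) (v y.1) = μ y • v y.1
    have h1 := (hv y.1 y.2).2
    have h2 : (y.1 : V ≃ₗ[ZMod p] V) (v y.1) =
        (g : V ≃ₗ[ZMod p] V) (((g⁻¹ * y.1 : G) : V ≃ₗ[ZMod p] V) (v y.1)) := by
      change _ = ((g : V ≃ₗ[ZMod p] V) * ((g⁻¹ * y.1 : G) : V ≃ₗ[ZMod p] V)) (v y.1)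
      rw [← Subgroup.coe_mul, mul_inv_cancel_left]
    have h3 := hK.act ⟨_, (hX y.1 y.2).1⟩ (v y.1)
    simp only at h3
    rw [h2, h3, hK.semi, hg] at h1
    have h4 : ((χ ⟨_, (hX y.1 y.2).1⟩ : Kˣ) : K) • (g : V ≃ₗ[ZMod p] V) (v y.1) = v y.1 := h1
    change _ = ((χ ⟨_, (hX y.1 y.2).1⟩)⁻¹ : Kˣ) • v y.1
    rw [eq_inv_smul_iff]
    exact h4)
  have h5 := hl.fintype_card_le_finrank
  rwa [Fintype.card_coe] at h5

/-- the non-trivial automorphism of a field of order `q ^ 2`, `q` a prime -/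
theorem frob (q : ℕ) (hq : q.Prime) (hKc : Nat.card K = q ^ 2) (s : K ≃+* K) (hs : s ≠ 1) (x : K) :
    s x = x ^ q := by
  have : Fact q.Prime := ⟨hq⟩
  have : Finite K := Nat.finite_of_card_ne_zero (by rw [hKc]; exact pow_ne_zero _ hq.ne_zero)
  have : Fintype K := Fintype.ofFinite K
  obtain ⟨c, hc⟩ := CharP.exists K
  obtain ⟨n, hcp, hn⟩ := FiniteField.card K c
  have hcq : c = q := by
    rw [← Nat.card_eq_fintype_card, hKc] at hn
    have h1 : c ∣ q ^ 2 := by rw [hn]; exact dvd_pow_self _ n.ne_zero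
    exact (Nat.prime_dvd_prime_iff_eq hcp hq).1 (hcp.dvd_of_dvd_pow h1)
  subst hcq
  let _ : Algebra (ZMod c) K := ZMod.algebra K c
  let s' : K ≃ₐ[ZMod c] K := AlgEquiv.ofRingEquiv (f := s) (fun y => by
    have := RingHom.ext_zmod ((s : K →+* K).comp (algebraMap (ZMod c) K)) (algebraMap (ZMod c) K)
    exact RingHom.congr_fun this y)
  obtain ⟨i, hi⟩ := (FiniteField.bijective_frobeniusAlgEquivOfAlgebraic_pow (ZMod c) K).2 s'
  have hfr : Module.finrank (ZMod c) K = 2 := by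
    have h1 := Module.natCard_eq_pow_finrank (K := ZMod c) (V := K)
    rw [hKc, Nat.card_zmod] at h1
    exact (Nat.pow_right_injective hcp.two_le h1).symm
  have hi2 : (i : ℕ) < 2 := lt_of_lt_of_eq i.2 hfr
  have hs' : ∀ y, s' y = s y := fun y => rfl
  replace hi : FiniteField.frobeniusAlgEquivOfAlgebraic (ZMod c) K ^ (i : ℕ) = s' := hi
  rw [← hs', ← hi]
  have hcase : (i : ℕ) = 0 ∨ (i : ℕ) = 1 := by omega
  rcases hcase with h0 | h0
  · exfalso
    apply hs
    ext y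
    rw [← hs', ← hi, h0, pow_zero]
    rfl
  · simp only [h0, pow_one]
    rw [FiniteField.coe_frobeniusAlgEquivOfAlgebraic]
    simp [ZMod.card]

/-- the involutions in a coset of `A` outside `C_G(A)` -/
theorem coset_semi (hK : KS G A K χ σ) (hcyc : IsCyclic A) (q : ℕ) (hq : q.Prime) (hKc : Nat.card K = q ^ 2)
    {g : G} (hg : σ g ≠ 1) (hg2 : g * g = 1) (X : Finset G)
    (hX : ∀ y ∈ X, ((g⁻¹ * y : G) : V ≃ₗ[ZMod p] V) ∈ A ∧ y * y = 1) [Nontrivial V] :
    X.card ≤ Nat.gcd (q + 1) (Nat.card A) := by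
  refine card_pow_le A hcyc (q + 1) (Nat.succ_pos _) X (fun y => ((g⁻¹ * y : G) : V ≃ₗ[ZMod p] V)) ?_ ?_
  · intro y _ y' _ h
    exact mul_left_cancel (Subtype.ext h)
  · intro y hy
    have hy' := hX y hy
    refine ⟨hy'.1, ?_⟩
    obtain ⟨v, hv⟩ := exists_ne (0 : V)
    let a : A := ⟨((g⁻¹ * y : G) : V ≃ₗ[ZMod p] V), hy'.1⟩
    have h1 : χ a ^ (q + 1) = 1 := by
      have h2 : ∀ w : V, (y : V ≃ₗ[ZMod p] V) w = (g : V ≃ₗ[ZMod p] V) ((χ a : K) • w) := by
        intro w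
        rw [← hK.act]
        change _ = ((g : V ≃ₗ[ZMod p] V) * ((g⁻¹ * y : G) : V ≃ₗ[ZMod p] V)) w
        rw [← Subgroup.coe_mul, mul_inv_cancel_left]
      have h3 : (y : V ≃ₗ[ZMod p] V) ((y : V ≃ₗ[ZMod p] V) v) = v := by
        change ((y * y : G) : V ≃ₗ[ZMod p] V) v = v
        rw [hy'.2]; rfl
      have h4 : (g : V ≃ₗ[ZMod p] V) ((g : V ≃ₗ[ZMod p] V) v) = v := by
        change ((g * g : G) : V ≃ₗ[ZMod p] V) v = v
        rw [hg2]; rfl
      rw [h2, h2, hK.semi g (χ a : K) v, smul_smul, hK.semi, h4, map_mul] at h3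
      have h5 : ((σ g) (χ a : K) * (σ g) ((σ g) (χ a : K)) - 1) • v = 0 := by
        rw [sub_smul, h3, one_smul, sub_self]
      rcases smul_eq_zero.1 h5 with h6 | h6
      · have h7 := sub_eq_zero.1 h6
        rw [← map_mul] at h7
        have h8 : (χ a : K) * (σ g) (χ a : K) = 1 := (σ g).injective (by rw [h7, map_one])
        rw [frob q hq hKc (σ g) hg] at h8
        apply Units.ext
        rw [Units.val_pow_eq_pow_val, pow_succ', h8]; rfl
      · exact absurd h6 hv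
    rw [← map_pow] at h1
    have h9 := hK.inj (h1.trans (map_one χ).symm)
    exact congrArg Subtype.val h9

/-- covering the non-zero vectors by fixed spaces -/
theorem cover_le (X : Finset G) (B : ℕ) (hB : ∀ g ∈ X, Nat.card (fx (g : V ≃ₗ[ZMod p] V)) ≤ B + 1)
    (hcov : ∀ v : V, v ≠ 0 → ∃ g ∈ X, (g : V ≃ₗ[ZMod p] V) v = v) : Nat.card V ≤ X.card * B + 1 := by
  have h1 : Finset.univ.erase (0 : V) ⊆
      X.biUnion (fun g => (Finset.univ.filter (fun v : V => v ∈ fx (g : V ≃ₗ[ZMod p] V))).erase 0) := by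
    intro v hv
    obtain ⟨g, hg, hgv⟩ := hcov v (Finset.ne_of_mem_erase hv)
    rw [Finset.mem_biUnion]
    refine ⟨g, hg, Finset.mem_erase.2 ⟨Finset.ne_of_mem_erase hv, Finset.mem_filter.2 ⟨Finset.mem_univ _, ?_⟩⟩⟩
    rw [mem_fx]; exact hgv
  have h2 := (Finset.card_le_card h1).trans (Finset.card_biUnion_le_card_mul _ _ B (by
    intro g hg
    rw [Finset.card_erase_of_mem (Finset.mem_filter.2 ⟨Finset.mem_univ _, Submodule.zero_mem _⟩)]
    have h3 := hB g hg
    rw [Nat.card_eq_fintype_card, Fintype.card_subtype] at h3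
    exact Nat.sub_le_of_le_add h3))
  rw [Finset.card_erase_of_mem (Finset.mem_univ _), Finset.card_univ, ← Nat.card_eq_fintype_card] at h2
  omega

theorem card_ker (hK : KS G A K χ σ) : Nat.card σ.ker = Nat.card (CC G A) := by
  refine Nat.card_congr ⟨fun g => ⟨g.1.1, mem_CC.2 ⟨g.1.2, fun x hx => ?_⟩⟩, fun g => ⟨⟨g.1, (mem_CC.1 g.2).1⟩, ?_⟩,
    ?_, ?_⟩
  · exact (hK.cen g.1).1 g.2 x hx
  · exact (hK.cen _).2 (mem_CC.1 g.2).2
  · intro g; rfl
  · intro g; rfl

theorem sigma_A (E : ETwo G A F) (hK : KS G A K χ σ) {a : G} (ha : (a : V ≃ₗ[ZMod p] V) ∈ A) : σ a = 1 :=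
  (hK.cen a).2 (fun x hx => E.cenA _ ha x (E.AF hx))

/-- number of elements of `C_G(A)` with non-zero fixed vectors -/
theorem card_lin (E : ETwo G A F) (hK : KS G A K χ σ) {k d : ℕ} (hk : Nat.card (CC G A) = k * Nat.card A)
    (hd : Module.finrank K V = d) (X : Finset G)
    (hX : ∀ g ∈ X, σ g = 1 ∧ g ≠ 1 ∧ ∃ v : V, v ≠ 0 ∧ (g : V ≃ₗ[ZMod p] V) v = v) : X.card + d ≤ d * k := by
  have hpos : 0 < Nat.card A := card_A_pos
  have hAc : Nat.card (A.subgroupOf G) = Nat.card A :=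
    Nat.card_congr (Subgroup.subgroupOfEquivOfLe (E.AF.trans E.FG)).toEquiv
  have h1 := fiber_count (A.subgroupOf G) X
    ((Finset.univ.filter (fun g : G => g ∈ σ.ker)) \ (Finset.univ.filter (fun g : G => g ∈ A.subgroupOf G))) d (by
      intro x hx a ha
      have hx' := hX x hx
      refine Finset.mem_sdiff.2 ⟨Finset.mem_filter.2 ⟨Finset.mem_univ _, ?_⟩, ?_⟩
      · exact σ.ker.mul_mem hx'.1 (sigma_A E hK ha)
      · intro hc
        have hc' := (Finset.mem_filter.1 hc).2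
        have hxA : x ∈ A.subgroupOf G := by
          have : x = (x * a) * a⁻¹ := by group
          rw [this]
          exact (A.subgroupOf G).mul_mem hc' ((A.subgroupOf G).inv_mem ha)
        obtain ⟨v, hv, hxv⟩ := hx'.2.2
        exact hv (E.semi _ hxA (fun h => hx'.2.1 (Subtype.ext h)) v hxv)) (by
      intro x hx
      rw [← hd]
      refine coset_lin hK (hX x hx).1 _ ?_
      intro y hy
      have hy' := Finset.mem_filter.1 hy
      exact ⟨hy'.2, (hX y hy'.1).2.2⟩)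
  have h2 : (Finset.univ.filter (fun g : G => g ∈ A.subgroupOf G)) ⊆ (Finset.univ.filter (fun g : G => g ∈ σ.ker)) := by
    intro g hg
    exact Finset.mem_filter.2 ⟨Finset.mem_univ _, sigma_A E hK (Finset.mem_filter.1 hg).2⟩
  have h3 : (Finset.univ.filter (fun g : G => g ∈ A.subgroupOf G)).card = Nat.card A := by
    rw [← hAc, Nat.card_eq_fintype_card, Fintype.card_subtype]
  have h4 : (Finset.univ.filter (fun g : G => g ∈ σ.ker)).card = k * Nat.card A := by
    rw [← hk, ← card_ker hK, Nat.card_eq_fintype_card, Fintype.card_subtype]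
  rw [Finset.card_sdiff_of_subset h2, h3, h4, hAc] at h1
  have hk1 : 1 ≤ k := by
    rcases Nat.eq_zero_or_pos k with h | h
    · rw [h, zero_mul] at hk
      have : 0 < Nat.card (CC G A) := Nat.card_pos
      omega
    · exact h
  obtain ⟨j, rfl⟩ : ∃ j, k = j + 1 := ⟨k - 1, by omega⟩
  have h5 : (j + 1) * Nat.card A - Nat.card A = j * Nat.card A := by
    rw [add_mul, one_mul, Nat.add_sub_cancel]
  rw [h5, ← mul_assoc] at h1
  have h6 := Nat.le_of_mul_le_mul_right h1 hpos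
  rw [mul_add, mul_one]
  omega

/-- number of involutions outside `C_G(A)` -/
theorem card_semi (E : ETwo G A F) (hK : KS G A K χ σ) [Nontrivial V] {q : ℕ} (hq : q.Prime) (hKc : Nat.card K = q ^ 2)
    (X : Finset G) (hX : ∀ g ∈ X, σ g ≠ 1 ∧ g * g = 1) :
    X.card * Nat.card A ≤ Nat.gcd (q + 1) (Nat.card A) * (Nat.card G - Nat.card (CC G A)) := by
  have hAc : Nat.card (A.subgroupOf G) = Nat.card A :=
    Nat.card_congr (Subgroup.subgroupOfEquivOfLe (E.AF.trans E.FG)).toEquiv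
  have h1 := fiber_count (A.subgroupOf G) X (Finset.univ \ (Finset.univ.filter (fun g : G => g ∈ σ.ker))) (Nat.gcd (q + 1) (Nat.card A)) (by
      intro x hx a ha
      refine Finset.mem_sdiff.2 ⟨Finset.mem_univ _, ?_⟩
      intro hc
      have hc' : σ (x * a) = 1 := (Finset.mem_filter.1 hc).2
      rw [map_mul, sigma_A E hK ha, mul_one] at hc'
      exact (hX x hx).1 hc') (by
      intro x hx
      refine coset_semi hK E.cyc q hq hKc (hX x hx).1 (hX x hx).2 _ ?_
      intro y hy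
      have hy' := Finset.mem_filter.1 hy
      exact ⟨hy'.2, (hX y hy'.1).2⟩)
  rw [Finset.card_sdiff_of_subset (Finset.subset_univ _), Finset.card_univ, ← Nat.card_eq_fintype_card, hAc] at h1
  have h4 : (Finset.univ.filter (fun g : G => g ∈ σ.ker)).card = Nat.card (CC G A) := by
    rw [← card_ker hK, Nat.card_eq_fintype_card, Fintype.card_subtype]
  rwa [h4] at h1

/-- the range of `σ` has at most two elements -/
theorem card_range_le {q : ℕ} (hq : q.Prime) (hKc : Nat.card K = q ^ 2) : Nat.card σ.range ≤ 2 := by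
  by_cases hex : ∃ s : K ≃+* K, s ≠ 1
  · obtain ⟨s, hs⟩ := hex
    have h1 : ((σ.range : Subgroup (K ≃+* K)) : Set (K ≃+* K)) ⊆ {1, s} := by
      intro t _
      by_cases ht : t = 1
      · exact Or.inl ht
      · refine Or.inr (RingEquiv.ext fun x => ?_)
        rw [frob q hq hKc t ht, frob q hq hKc s hs]
    have h2 := Set.ncard_le_ncard h1 (Set.toFinite _)
    exact h2.trans (Set.ncard_insert_le _ _ |>.trans (by rw [Set.ncard_singleton]))
  · push Not at hex
    have h1 : σ.range = ⊥ := by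
      rw [eq_bot_iff]
      intro t _
      exact hex t
    rw [h1, Subgroup.card_bot]
    norm_num

end field

theorem arith11 : ∀ k ∈ Finset.range 37, ∀ z ∈ Finset.range 121, z ∣ 120 → 2 ∣ z → ¬ 5 ∣ k → k * z ∣ 14640 →
    2 * k + Nat.gcd 12 z * k < 124 := by
  decide +kernel

/-- **The case `|V| = 11 ^ 4`.** -/
theorem e_two_eleven [Nontrivial V] {K : Type u} [Field K] [Module K V] {χ : A →* Kˣ} {σ : G →* (K ≃+* K)}
    (E : ETwo G A F) (hK : KS G A K χ σ) (_hp : p = 11) (hV : Nat.card V = 11 ^ 4)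
    (hKc : Nat.card K = 11 ^ 2) (_hcop : ¬ p ∣ Nat.card G) {h : ℕ} (hh : Half G h) (h2 : 2 ≤ h) : False := by
  have hfin := hK.fin
  have : Module.Finite K V := Module.Finite.of_finite
  have hq : Nat.Prime 11 := by norm_num
  have hd : Module.finrank K V = 2 := by
    have h1 := Module.natCard_eq_pow_finrank (K := K) (V := V)
    rw [hV, hKc, ← pow_mul] at h1
    have h3 := Nat.pow_right_injective (le_refl 2 |>.trans (by norm_num : 2 ≤ 11)) h1
    omega
  have hzpos : 0 < Nat.card A := card_A_pos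
  have hz2 := two_dvd E
  have hz : Nat.card A ∣ 120 := by
    have h1 := Subgroup.card_dvd_of_injective χ hK.inj
    rw [Nat.card_units, hKc] at h1
    exact h1
  obtain ⟨k, hk⟩ : ∃ k, Nat.card (CC G A) = k * Nat.card A := by
    obtain ⟨k, hk⟩ := Subgroup.card_dvd_of_le (A_le_CC E)
    exact ⟨k, by rw [hk, mul_comm]⟩
  have hk36 : k ≤ 36 := by
    have h1 := card_CC_le E
    rw [hk, mul_comm] at h1
    exact Nat.le_of_mul_le_mul_left h1 hzpos
  obtain ⟨XC, hXC⟩ : ∃ X : Finset G, ∀ g, g ∈ X ↔ (σ g = 1 ∧ g ≠ 1 ∧ ∃ v : V, v ≠ 0 ∧ (g : V ≃ₗ[ZMod p] V) v = v) :=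
    ⟨Finset.univ.filter (fun g : G => σ g = 1 ∧ g ≠ 1 ∧ ∃ v : V, v ≠ 0 ∧ (g : V ≃ₗ[ZMod p] V) v = v), fun g => by simp⟩
  have hlin := card_lin E hK hk hd XC (fun g hg => (hXC g).1 hg)
  have hfl : ∀ g : G, σ g = 1 → g ≠ 1 → Nat.card (fx (g : V ≃ₗ[ZMod p] V)) ≤ 120 + 1 := by
    intro g hg hg1
    have h1 := fx_lin hK hg hg1
    rw [hV, hKc] at h1
    omega
  have hfs : ∀ g : G, σ g ≠ 1 → Nat.card (fx (g : V ≃ₗ[ZMod p] V)) ≤ 120 + 1 := by
    intro g hg
    have h1 := fx_semi hK hg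
    rw [hV] at h1
    nlinarith
  -- a vector with trivial stabiliser in `C_G(A)`
  obtain ⟨v₀, hv₀, hfree⟩ : ∃ v : V, v ≠ 0 ∧ ∀ g : G, σ g = 1 → (g : V ≃ₗ[ZMod p] V) v = v → g = 1 := by
    by_contra hc
    push Not at hc
    have h1 := cover_le XC 120 (fun g hg => hfl g ((hXC g).1 hg).1 ((hXC g).1 hg).2.1) (by
      intro v hv
      obtain ⟨g, hg, hgv, hg1⟩ := hc v hv
      exact ⟨g, (hXC g).2 ⟨hg, hg1, v, hv, hgv⟩, hgv⟩)
    rw [hV] at h1
    omega
  have hr2 := card_range_le (σ := σ) hq hKc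
  have hhr : h ≤ Nat.card σ.range := by
    rw [← hh v₀ hv₀]
    refine Nat.card_le_card_of_injective (fun g : MulAction.stabilizer G v₀ => σ.rangeRestrict g.1) ?_
    intro g g' hgg
    have h1 : σ g.1 = σ g'.1 := congrArg Subtype.val hgg
    have h3 := hfree (g.1⁻¹ * g'.1) (by rw [map_mul, map_inv, h1, inv_mul_cancel]) (by
      exact ((MulAction.stabilizer G v₀).mul_mem ((MulAction.stabilizer G v₀).inv_mem g.2) g'.2))
    exact Subtype.ext (inv_mul_eq_one.1 h3)
  have hh2 : h = 2 := by omega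
  have hrange : Nat.card σ.range = 2 := by omega
  have hG : Nat.card G = 2 * (k * Nat.card A) := by
    have h1 := Subgroup.card_mul_index σ.ker
    rw [Subgroup.index_ker, hrange, card_ker hK, hk] at h1
    omega
  obtain ⟨m, hm, _⟩ := exists_m hh (exists_ne (0 : V))
  have hmk : m = k * Nat.card A := by
    rw [hh2, hG] at hm
    omega
  have hdvd := dvd_card_sub_one hh (by omega) hm
  rw [hV, hmk] at hdvd
  have h5 : ¬ 5 ∣ k := by
    intro h5
    have := prime_dvd E hk (by norm_num) h5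
    omega
  obtain ⟨XN, hXN⟩ : ∃ X : Finset G, ∀ g, g ∈ X ↔ (σ g ≠ 1 ∧ g * g = 1) :=
    ⟨Finset.univ.filter (fun g : G => σ g ≠ 1 ∧ g * g = 1), fun g => by simp⟩
  have hsemi := card_semi E hK hq hKc XN (fun g hg => (hXN g).1 hg)
  rw [hG, hk] at hsemi
  have e1 : 2 * (k * Nat.card A) - k * Nat.card A = k * Nat.card A := by omega
  rw [e1, ← mul_assoc] at hsemi
  have hsemi' := Nat.le_of_mul_le_mul_right hsemi hzpos
  have hcov := cover_le (XC ∪ XN) 120 (by
    intro g hg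
    rcases Finset.mem_union.1 hg with hg | hg
    · exact hfl g ((hXC g).1 hg).1 ((hXC g).1 hg).2.1
    · exact hfs g ((hXN g).1 hg).1) (by
    intro v hv
    have h1 : 1 < Nat.card (MulAction.stabilizer G v) := by rw [hh v hv]; omega
    have : Nontrivial (MulAction.stabilizer G v) := Finite.one_lt_card_iff_nontrivial.1 h1
    obtain ⟨g, hg⟩ := exists_ne (1 : MulAction.stabilizer G v)
    refine ⟨g.1, ?_, g.2⟩
    by_cases hσ : σ g.1 = 1
    · exact Finset.mem_union_left _ ((hXC _).2 ⟨hσ, fun h => hg (Subtype.ext h), v, hv, g.2⟩)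
    · refine Finset.mem_union_right _ ((hXN _).2 ⟨hσ, ?_⟩)
      have h3 : g ^ Nat.card (MulAction.stabilizer G v) = 1 := pow_card_eq_one'
      rw [hh v hv, hh2, pow_two] at h3
      exact congrArg Subtype.val h3)
  rw [hV] at hcov
  have hun := Finset.card_union_le XC XN
  have har := arith11 k (Finset.mem_range.2 (by omega)) (Nat.card A)
    (Finset.mem_range.2 (Nat.lt_succ_of_le (Nat.le_of_dvd (by norm_num) hz))) hz hz2 h5 hdvd
  have e2 : Nat.gcd (11 + 1) (Nat.card A) = Nat.gcd 12 (Nat.card A) := rfl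
  rw [e2] at hsemi'
  omega

end Cfsg.Agent.H919.HT
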